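import Cfsg.Prelude.Def_ParabolicCharacters
import Cfsg.Agent.Lib.Two.SL

/-!
# The Borel subgroup of `SL(2, q)`
-/

set_option autoImplicit false

open scoped MatrixGroups

namespace Cfsg.Agent.Lib.TwoChar

open Cfsg Matrix

universe u

variable (F : Type u) [Field F]

/-- The upper triangular subgroup of `SL(2, F)`. -/
abbrev borelSL : Subgroup SL(2, F) := (Cfsg.upperTriangularGL 2 F).comap Matrix.SpecialLinearGroup.toGL

variable {F}

theorem mem_borelSL (g : SL(2, F)) : g ∈ borelSL F ↔ (g : Matrix (Fin 2) (Fin 2) F) 1 0 = 0 := by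
  change Matrix.BlockTriangular (g : Matrix (Fin 2) (Fin 2) F) id ↔ _
  constructor
  · exact fun h => h (show (0 : Fin 2) < 1 by decide)
  · intro h i j hij
    fin_cases i <;> fin_cases j <;> simp_all

/-- Coordinates on the Borel subgroup. -/
noncomputable def borelEquiv : borelSL F ≃ Fˣ × F where
  toFun g := ⟨⟨(g.1 : Matrix (Fin 2) (Fin 2) F) 0 0, (g.1 : Matrix (Fin 2) (Fin 2) F) 1 1,
      by have h := g.1.2; rw [det_fin_two, (mem_borelSL g.1).1 g.2, mul_zero, sub_zero] at h; exact h,
      by have h := g.1.2; rw [det_fin_two, (mem_borelSL g.1).1 g.2, mul_zero, sub_zero, mul_comm] at h; exact h⟩,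
    (g.1 : Matrix (Fin 2) (Fin 2) F) 0 1⟩
  invFun p := ⟨⟨!![(p.1 : F), p.2; 0, ((p.1⁻¹ : Fˣ) : F)], by simp [det_fin_two]⟩, (mem_borelSL _).2 (by simp)⟩
  left_inv g := by
    refine Subtype.ext (Subtype.ext ?_)
    have h := (mem_borelSL g.1).1 g.2
    ext i j
    fin_cases i <;> fin_cases j <;> simp [h]
  right_inv p := by
    refine Prod.ext (Units.ext ?_) ?_ <;> simp

theorem borel_coe (g : borelSL F) : (g.1 : Matrix (Fin 2) (Fin 2) F) =
    !![((borelEquiv g).1 : F), (borelEquiv g).2; 0, (((borelEquiv g).1⁻¹ : Fˣ) : F)] := by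
  conv_lhs => rw [← borelEquiv.symm_apply_apply g]
  rfl

theorem borel_commute_iff (g h : borelSL F) :
    Commute g h ↔ ((borelEquiv g).1 - ((borelEquiv g).1⁻¹ : Fˣ) : F) * (borelEquiv h).2 =
      ((borelEquiv h).1 - ((borelEquiv h).1⁻¹ : Fˣ) : F) * (borelEquiv g).2 := by
  change g * h = h * g ↔ _
  refine (Subtype.ext_iff.trans Subtype.ext_iff).trans ?_
  rw [Subgroup.coe_mul, Subgroup.coe_mul, Matrix.SpecialLinearGroup.coe_mul,
    Matrix.SpecialLinearGroup.coe_mul, borel_coe g, borel_coe h, ← Matrix.ext_iff]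
  simp only [Fin.forall_fin_two, Matrix.mul_apply, Fin.sum_univ_two]
  simp
  constructor
  · intro e
    linear_combination e.1.2
  · intro e
    refine ⟨⟨?_, ?_⟩, ?_⟩ <;> first | linear_combination e | ring

variable [Fintype F]

theorem card_borelSL : Nat.card (borelSL F) = Fintype.card F * (Fintype.card F - 1) := by
  classical
  rw [Nat.card_congr borelEquiv, Nat.card_prod, Nat.card_units, Nat.card_eq_fintype_card, mul_comm]

/-- The number of solutions of a linear equation in two variables. -/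
theorem card_linear_eq [DecidableEq F] (α β : F) :
    (Finset.univ.filter fun p : F × F => α * p.2 = β * p.1).card =
      if α = 0 ∧ β = 0 then Fintype.card F ^ 2 else Fintype.card F := by
  split_ifs with h
  · rw [Finset.filter_true_of_mem (fun p _ => by rw [h.1, h.2]; simp), Finset.card_univ, Fintype.card_prod, sq]
  · by_cases hα : α = 0
    · have hβ : β ≠ 0 := fun hb => h ⟨hα, hb⟩
      rw [show (Finset.univ.filter fun p : F × F => α * p.2 = β * p.1) = Finset.univ.image fun e : F => ((0 : F), e) by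
        ext ⟨b, e⟩
        simp [hα, hβ, eq_comm], Finset.card_image_of_injective _ (fun a b e => congrArg Prod.snd e), Finset.card_univ]
    · rw [show (Finset.univ.filter fun p : F × F => α * p.2 = β * p.1) = Finset.univ.image fun b : F => (b, β * b / α) by
        ext ⟨b, e⟩
        simp only [Finset.mem_filter, Finset.mem_univ, true_and, Finset.mem_image, Prod.mk.injEq]
        constructor
        · intro h'
          exact ⟨b, rfl, by rw [← h']; field_simp⟩
        · rintro ⟨b', rfl, rfl⟩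
          field_simp, Finset.card_image_of_injective _ (fun a b e => congrArg Prod.fst e), Finset.card_univ]

theorem card_classes_borelSL (hodd : Odd (Fintype.card F)) :
    Nat.card (ConjClasses (borelSL F)) = Fintype.card F + 3 := by
  classical
  have h2 := Two.two_ne_zero_of_odd hodd
  set q := Fintype.card F with hq
  have hq3 : 3 ≤ q := by
    have := Fintype.one_lt_card (α := F)
    obtain ⟨r, hr⟩ := hodd
    omega
  have hne : (1 : Fˣ) ≠ -1 := fun e => by
    have := congrArg (fun u : Fˣ => (u : F)) e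
    simp at this
    exact h2 (by linear_combination this)
  have hzero : ∀ a : Fˣ, (a : F) - ((a⁻¹ : Fˣ) : F) = 0 ↔ a = 1 ∨ a = -1 := fun a => by
    rw [sub_eq_zero, Units.val_inj]
    constructor
    · intro e
      have e' : (a : F) * a = 1 := by
        rw [← Units.val_mul]
        nth_rewrite 2 [e]
        rw [mul_inv_cancel, Units.val_one]
      rcases mul_self_eq_one_iff.1 e' with h | h
      · exact Or.inl (Units.ext h)
      · exact Or.inr (Units.ext (by simpa using h))
    · rintro (rfl | rfl) <;> simp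
  let P := (Fˣ × F) × (Fˣ × F)
  have hpairs : Nat.card {p : borelSL F × borelSL F // Commute p.1 p.2} = Nat.card {x : (Fˣ × Fˣ) × (F × F) //
      ((x.1.1 : F) - (x.1.1⁻¹ : Fˣ)) * x.2.2 = ((x.1.2 : F) - (x.1.2⁻¹ : Fˣ)) * x.2.1} := by
    refine Nat.card_congr ((Equiv.subtypeEquiv
      ((Equiv.prodCongr borelEquiv borelEquiv).trans (Equiv.prodProdProdComm Fˣ F Fˣ F)) fun p => ?_))
    rw [borel_commute_iff]
    rfl
  have hcount : Nat.card {x : (Fˣ × Fˣ) × (F × F) //
      ((x.1.1 : F) - (x.1.1⁻¹ : Fˣ)) * x.2.2 = ((x.1.2 : F) - (x.1.2⁻¹ : Fˣ)) * x.2.1} =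
      q * (q - 1) * (q + 3) := by
    rw [Nat.card_eq_fintype_card, Fintype.card_subtype, Finset.card_filter, Fintype.sum_prod_type]
    simp only [← Finset.card_filter]
    rw [Finset.sum_congr rfl fun (x : Fˣ × Fˣ) _ => card_linear_eq ((x.1 : F) - (x.1⁻¹ : Fˣ)) ((x.2 : F) - (x.2⁻¹ : Fˣ))]
    simp only [← hq, hzero]
    rw [Finset.sum_ite, Finset.sum_const, Finset.sum_const, smul_eq_mul, smul_eq_mul]
    set Z := Finset.univ.filter fun x : Fˣ × Fˣ => (x.1 = 1 ∨ x.1 = -1) ∧ (x.2 = 1 ∨ x.2 = -1) with hZ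
    have hZc : Z.card = 4 := by
      rw [show Z = ({1, -1} : Finset Fˣ) ×ˢ ({1, -1} : Finset Fˣ) by ext ⟨a, b⟩; simp [hZ],
        Finset.card_product, Finset.card_pair hne]
    have htot := Finset.card_filter_add_card_filter_not (s := (Finset.univ : Finset (Fˣ × Fˣ)))
      (fun x => (x.1 = 1 ∨ x.1 = -1) ∧ (x.2 = 1 ∨ x.2 = -1))
    rw [← hZ, hZc, Finset.card_univ, Fintype.card_prod, Fintype.card_units, ← hq] at htot
    rw [hZc]
    set M := (Finset.univ.filter fun x : Fˣ × Fˣ => ¬((x.1 = 1 ∨ x.1 = -1) ∧ (x.2 = 1 ∨ x.2 = -1))).card with hM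
    obtain ⟨k, hk⟩ : ∃ k, q = k + 3 := ⟨q - 3, by omega⟩
    rw [hk, show k + 3 - 1 = k + 2 by omega] at htot ⊢
    have hM' : M = k * k + 4 * k := by ring_nf at htot ⊢; omega
    rw [hM']
    ring
  have h := card_comm_eq_card_conjClasses_mul_card (borelSL F)
  rw [hpairs, hcount, card_borelSL, ← hq, mul_comm _ (q + 3)] at h
  exact (Nat.eq_of_mul_eq_mul_right (Nat.mul_pos (by omega) (by omega)) h).symm

end Cfsg.Agent.Lib.TwoChar
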