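import Cfsg.Agent.Lib.TwoChar.Cusp

/-!
# All cuspidal characters of `SL(2, q)`, `q` odd
-/

set_option autoImplicit false

open scoped MatrixGroups ComplexConjugate

namespace Cfsg.Agent.Lib.TwoChar

open Cfsg Cfsg.Agent.Lib.Char Matrix

universe u

variable {F : Type u} [Field F] [Fintype F] [Fintype SL(2, F)] [DecidableEq F]
  (hodd : Odd (Fintype.card F)) {η : F} (hη : ¬ IsSquare η) {ψ : AddChar F ℂ} (hψ : ψ ≠ 1)
  (C : Subgroup SL(2, F)) [IsCyclic C] (hcard : Nat.card C = Fintype.card F + 1)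

local notation "d" => slDat F

include hodd hcard in
omit [DecidableEq F] in
theorem m_cuspFun (θ : C →* ℂˣ) (l : (slDat F).T →* ℂˣ) (φ : AddChar F ℂ) [Decidable (φ = 1)] :
    (d).m φ (cuspFun C θ l) = if φ = 1 then 0 else 1 := by
  classical
  have h : ∀ x : F, cuspFun C θ l ((d).uu x) * conj (φ x) =
      (if x = 0 then (Fintype.card F : ℂ) else 0) - conj (φ x) := fun x => by
    by_cases hx : x = 0
    · subst hx
      rw [(d).uu_zero, cuspFun_one hodd C hcard, AddChar.map_zero_eq_one, map_one, if_pos rfl, mul_one]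
    · rw [cuspFun_uu hodd C hcard θ l hx, if_neg hx]; ring
  rw [Dat.m, Finset.sum_congr rfl fun x _ => h x, Finset.sum_sub_distrib, Finset.sum_ite_eq',
    if_pos (Finset.mem_univ _), ← map_sum]
  have hq : (Fintype.card F : ℂ) ≠ 0 := Nat.cast_ne_zero.mpr Fintype.card_ne_zero
  split_ifs with h1
  · subst h1
    simp
  · rw [AddChar.sum_eq_zero_of_ne_one h1, map_zero, sub_zero, inv_mul_cancel₀ hq]

include hodd hη hψ hcard in
/-- The irreducible cuspidal character of a regular torus character has type `(0; 1, 1)`. -/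
theorem cuspFun_type (θ : C →* ℂˣ) (hθ : θ ^ 2 ≠ 1) (l : (slDat F).T →* ℂˣ)
    (hl : (l ((slT F).symm (-1)) : ℂ) = (θ ⟨negOne F, negOne_mem hodd C hcard⟩ : ℂ)) :
    (d).A (⟨cuspFun C θ l, isIrr_cuspFun hodd C hcard θ hθ l hl⟩ : IrrCharacter SL(2, F)) = 0 ∧
    (d).M ψ (⟨cuspFun C θ l, isIrr_cuspFun hodd C hcard θ hθ l hl⟩ : IrrCharacter SL(2, F)) = 1 ∧
    (d).M (ψ.mulShift η) (⟨cuspFun C θ l, isIrr_cuspFun hodd C hcard θ hθ l hl⟩ : IrrCharacter SL(2, F)) = 1 := by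
  classical
  have key : ∀ φ : AddChar F ℂ,
      (d).M φ (⟨cuspFun C θ l, isIrr_cuspFun hodd C hcard θ hθ l hl⟩ : IrrCharacter SL(2, F)) =
        if φ = 1 then 0 else 1 := fun φ => by
    have h := ((slDat F).M_spec φ (⟨cuspFun C θ l, isIrr_cuspFun hodd C hcard θ hθ l hl⟩ : IrrCharacter SL(2, F))).symm.trans
      (m_cuspFun hodd C hcard θ l φ)
    split_ifs at h ⊢ <;> exact_mod_cast h
  refine ⟨?_, ?_, ?_⟩
  · rw [Dat.A, key, if_pos rfl]
  · rw [key, if_neg hψ]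
  · rw [key, if_neg (mulShift_ne hη hψ)]

include hcard in
omit [Fintype SL(2, F)] [DecidableEq F] in
theorem card_dual_torus [Fintype (C →* ℂˣ)] : Fintype.card (C →* ℂˣ) = Fintype.card F + 1 := by
  letI : CommGroup C := IsCyclic.commGroup
  rw [← Nat.card_eq_fintype_card, card_dual, hcard]

omit [Fintype F] [Fintype SL(2, F)] [DecidableEq F] in
theorem eq_or_inv_of_trace_eq {c₀ : C} (hgen : ∀ x : C, x ∈ Subgroup.zpowers c₀) {θ θ' : C →* ℂˣ}
    (h : (θ c₀ : ℂ) + (θ c₀⁻¹ : ℂ) = (θ' c₀ : ℂ) + (θ' c₀⁻¹ : ℂ)) : θ' = θ ∨ θ' = θ⁻¹ := by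
  have e1 : (θ c₀ : ℂ) * (θ c₀⁻¹ : ℂ) = 1 := by rw [← Units.val_mul, ← map_mul, mul_inv_cancel, map_one, Units.val_one]
  have e2 : (θ' c₀ : ℂ) * (θ' c₀⁻¹ : ℂ) = 1 := by rw [← Units.val_mul, ← map_mul, mul_inv_cancel, map_one, Units.val_one]
  have hz : ((θ' c₀ : ℂ) - θ c₀) * ((θ' c₀ : ℂ) - (θ c₀⁻¹ : ℂ)) = 0 := by
    linear_combination -(θ' c₀ : ℂ) * h + e1 - e2
  have ext' : ∀ θ₁ θ₂ : C →* ℂˣ, θ₁ c₀ = θ₂ c₀ → θ₁ = θ₂ := fun θ₁ θ₂ e => MonoidHom.ext fun x => by
    obtain ⟨n, rfl⟩ := Subgroup.mem_zpowers_iff.mp (hgen x)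
    rw [map_zpow, map_zpow, e]
  rcases mul_eq_zero.mp hz with e | e
  · exact Or.inl (ext' _ _ (Units.ext (sub_eq_zero.mp e)))
  · refine Or.inr (ext' _ _ (Units.ext ?_))
    rw [MonoidHom.inv_apply, ← map_inv]
    exact sub_eq_zero.mp e

include hodd hη hψ hcard in
/-- Every character of type `(0; 1, 1)` comes from the torus. -/
theorem exists_theta (χ : IrrCharacter SL(2, F)) (hA : (d).A χ = 0) (h1 : (d).M ψ χ = 1)
    (h2 : (d).M (ψ.mulShift η) χ = 1) : ∃ (θ : C →* ℂˣ) (l : (slDat F).T →* ℂˣ), θ ^ 2 ≠ 1 ∧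
      (χ : SL(2, F) → ℂ) = cuspFun C θ l := by
  classical
  letI : CommGroup C := IsCyclic.commGroup
  letI : Fintype (C →* ℂˣ) := @Fintype.ofFinite _ (finite_dual C)
  choose l hl using fun θ : C →* ℂˣ => exists_matching hodd C hcard θ
  let S : Finset (C →* ℂˣ) := Finset.univ.filter fun θ => θ ^ 2 ≠ 1
  let Φ : (C →* ℂˣ) → IrrCharacter SL(2, F) := fun θ =>
    if h : θ ^ 2 ≠ 1 then ⟨cuspFun C θ (l θ), isIrr_cuspFun hodd C hcard θ h (l θ) (hl θ)⟩ else Dat.triv _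
  obtain ⟨c₀, hc₀, hgen⟩ := exists_noncentral hodd C hcard
  have hΦ : ∀ θ ∈ S, (Φ θ : SL(2, F) → ℂ) = cuspFun C θ (l θ) := fun θ hθ => by
    simp only [Φ, dif_pos (Finset.mem_filter.mp hθ).2]
  have hfib : ∀ b ∈ S.image Φ, (S.filter fun θ => Φ θ = b).card ≤ 2 := by
    intro b hb
    obtain ⟨θ₀, hθ₀, rfl⟩ := Finset.mem_image.mp hb
    refine le_trans (Finset.card_le_card (t := {θ₀, θ₀⁻¹}) fun θ hθ => ?_) Finset.card_le_two
    obtain ⟨hS, e⟩ := Finset.mem_filter.mp hθ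
    have e' := congrFun ((hΦ θ hS).symm.trans ((congrArg Subtype.val e).trans (hΦ θ₀ hθ₀))) (c₀ : SL(2, F))
    rw [cuspFun_elliptic hodd C hcard _ _ _ hc₀, cuspFun_elliptic hodd C hcard _ _ _ hc₀, neg_inj] at e'
    rcases eq_or_inv_of_trace_eq C hgen e'.symm with h | h <;> simp [h]
  have hS : Fintype.card F - 1 ≤ S.card := by
    have hle : (Finset.univ.filter fun θ : C →* ℂˣ => θ ^ 2 = 1).card ≤ 2 := by
      refine le_trans (Finset.card_le_card_of_injOn (fun θ => (θ c₀ : ℂ)) (t := ({1, -1} : Finset ℂ)) (fun θ hθ => ?_)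
        (fun θ _ θ' _ e => MonoidHom.ext fun x => ?_)) Finset.card_le_two
      · have e := congrArg Units.val (DFunLike.congr_fun (Finset.mem_filter.mp hθ).2 c₀)
        rw [MonoidHom.pow_apply, Units.val_pow_eq_pow_val, MonoidHom.one_apply, Units.val_one] at e
        rcases sq_eq_one_iff.mp e with h | h <;> simp [h]
      · obtain ⟨n, rfl⟩ := Subgroup.mem_zpowers_iff.mp (hgen x)
        rw [map_zpow, map_zpow, Units.ext e]
    have := Finset.card_filter_add_card_filter_not (s := (Finset.univ : Finset (C →* ℂˣ))) (fun θ => θ ^ 2 = 1)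
    rw [Finset.card_univ, card_dual_torus C hcard] at this
    change _ ≤ (Finset.univ.filter fun θ : C →* ℂˣ => ¬ θ ^ 2 = 1).card
    omega
  let K := Finset.univ.filter fun χ : IrrCharacter SL(2, F) =>
    (d).A χ = 0 ∧ (d).M ψ χ = 1 ∧ (d).M (ψ.mulShift η) χ = 1
  have hsub : S.image Φ ⊆ K := by
    intro b hb
    obtain ⟨θ, hθ, rfl⟩ := Finset.mem_image.mp hb
    refine Finset.mem_filter.mpr ⟨Finset.mem_univ _, ?_⟩
    simp only [Φ, dif_pos (Finset.mem_filter.mp hθ).2]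
    exact cuspFun_type hodd hη hψ C hcard θ (Finset.mem_filter.mp hθ).2 _ (hl θ)
  have hK : S.image Φ = K := by
    refine Finset.eq_of_subset_of_card_le hsub ?_
    have h3 := Finset.card_le_mul_card_image S 2 hfib
    rw [show K.card = (Fintype.card F - 1) / 2 from (types_odd hodd hη hψ).2.2.1]
    omega
  obtain ⟨θ, hθ, e⟩ := Finset.mem_image.mp (hK ▸ Finset.mem_filter.mpr ⟨Finset.mem_univ χ, hA, h1, h2⟩ : χ ∈ S.image Φ)
  exact ⟨θ, l θ, (Finset.mem_filter.mp hθ).2, by rw [← e]; exact hΦ θ hθ⟩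

include hodd hη hψ hcard in
/-- The values of the halves of the reducible cuspidal character on the torus. -/
theorem half_minus_apply (θ₀ : C →* ℂˣ) (h0 : θ₀ ^ 2 = 1) (h1 : θ₀ ≠ 1) (hq : 5 ≤ Fintype.card F)
    (χ : IrrCharacter SL(2, F)) (hA : (d).A χ = 0)
    (hM : (d).M ψ χ + (d).M (ψ.mulShift η) χ = 1) (c : C) (hc : (c : SL(2, F)) ∉ Subgroup.center SL(2, F)) :
    (χ : SL(2, F) → ℂ) c = -(θ₀ c : ℂ) := by
  classical
  obtain ⟨l, hl⟩ := exists_matching hodd C hcard θ₀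
  set Φ := cuspFun C θ₀ l with hΦ
  have hgen := isGeneralized_cuspFun C θ₀ l
  choose n hn using fun ξ : IrrCharacter SL(2, F) => generalized_classInner_int hgen ξ
  have hcf := isClassFunction_of_generalized hgen
  have hexp : ∀ g, Φ g = ∑ ξ : IrrCharacter SL(2, F), (n ξ : ℂ) * (ξ : SL(2, F) → ℂ) g := fun g => by
    rw [hΦ, congrFun (eq_sum_classInner_smul hcf) g, Finset.sum_apply]
    exact Finset.sum_congr rfl fun ξ _ => by rw [Pi.smul_apply, smul_eq_mul, hn]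
  have hnorm : ∑ ξ : IrrCharacter SL(2, F), n ξ ^ 2 = 2 := by
    have h := classInner_cuspFun hodd C hcard θ₀ l hl
    rw [if_pos h0, classInner_eq_sum hcf] at h
    simp only [hn, map_intCast] at h
    have h' : ((∑ ξ : IrrCharacter SL(2, F), n ξ ^ 2 : ℤ) : ℂ) = ((2 : ℤ) : ℂ) := by
      push_cast
      exact (Finset.sum_congr rfl fun ξ _ => pow_two _).trans h
    exact_mod_cast h'
  have hm : ∀ φ : AddChar F ℂ, (∑ ξ : IrrCharacter SL(2, F), n ξ * ((d).M φ ξ : ℤ)) = if φ = 1 then 0 else 1 := by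
    intro φ
    have h := m_cuspFun hodd C hcard θ₀ l φ
    have e : (d).m φ Φ = ∑ ξ : IrrCharacter SL(2, F), (n ξ : ℂ) * ((d).M φ ξ : ℂ) := by
      simp only [← Dat.M_spec, Dat.m, hexp, Finset.sum_mul, Finset.mul_sum]
      rw [Finset.sum_comm]
      exact Finset.sum_congr rfl fun x _ => Finset.sum_congr rfl fun ξ _ => by ring
    rw [e] at h
    have h' : ((∑ ξ : IrrCharacter SL(2, F), n ξ * ((d).M φ ξ : ℤ) : ℤ) : ℂ) = ((if φ = 1 then 0 else 1 : ℤ) : ℂ) := by
      push_cast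
      exact h.trans (by split_ifs <;> simp)
    exact_mod_cast h'
  have hle : ∀ ξ, n ξ = 0 ∨ n ξ = 1 ∨ n ξ = -1 := fun ξ => by
    have h2 := Finset.single_le_sum (f := fun ξ => n ξ ^ 2) (fun ξ _ => sq_nonneg _) (Finset.mem_univ ξ)
    rw [hnorm] at h2
    have : -1 ≤ n ξ ∧ n ξ ≤ 1 := ⟨by nlinarith, by nlinarith⟩
    omega
  set P := Finset.univ.filter fun ξ : IrrCharacter SL(2, F) => n ξ ≠ 0 with hP
  have hPcard : P.card = 2 := by
    have e : ((P.card : ℕ) : ℤ) = 2 := by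
      rw [← hnorm, hP, Finset.card_filter]
      push_cast
      exact Finset.sum_congr rfl fun ξ _ => by rcases hle ξ with e | e | e <;> simp [e]
    omega
  obtain ⟨a, b, hab, hPab⟩ := Finset.card_eq_two.mp hPcard
  have hsum : ∀ f : IrrCharacter SL(2, F) → ℂ, ∑ ξ, (n ξ : ℂ) * f ξ = n a * f a + n b * f b := fun f => by
    rw [← Finset.sum_pair (f := fun ξ => (n ξ : ℂ) * f ξ) hab, ← hPab, hP, Finset.sum_filter]
    exact Finset.sum_congr rfl fun ξ _ => by split_ifs with h <;> simp_all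
  have hsumZ : ∀ f : IrrCharacter SL(2, F) → ℤ, ∑ ξ, n ξ * f ξ = n a * f a + n b * f b := fun f => by
    rw [← Finset.sum_pair (f := fun ξ => n ξ * f ξ) hab, ← hPab, hP, Finset.sum_filter]
    exact Finset.sum_congr rfl fun ξ _ => by split_ifs with h <;> simp_all
  have hna : n a ≠ 0 := (Finset.mem_filter.mp (hPab ▸ Finset.mem_insert_self a _ : a ∈ P)).2
  have hnb : n b ≠ 0 := (Finset.mem_filter.mp (hPab ▸ (by simp) : b ∈ P)).2
  have m0 := hm 1
  have m1 := hm ψ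
  have m2 := hm (ψ.mulShift η)
  rw [hsumZ, if_pos rfl] at m0
  rw [hsumZ, if_neg hψ] at m1
  rw [hsumZ, if_neg (mulShift_ne hη hψ)] at m2
  obtain ⟨c₀, hc₀, hgen₀⟩ := exists_noncentral hodd C hcard
  obtain ⟨T⟩ := exists_table hodd hη hψ
  have hθc₀ : (θ₀ c₀ : ℂ) = -1 := by
    have e := congrArg Units.val (DFunLike.congr_fun h0 c₀)
    rw [MonoidHom.pow_apply, Units.val_pow_eq_pow_val, MonoidHom.one_apply, Units.val_one] at e
    rcases sq_eq_one_iff.mp e with h | h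
    · exfalso
      refine h1 (MonoidHom.ext fun x => ?_)
      obtain ⟨m, rfl⟩ := Subgroup.mem_zpowers_iff.mp (hgen₀ x)
      rw [map_zpow, show θ₀ c₀ = 1 from Units.ext h, _root_.one_zpow, MonoidHom.one_apply]
    · exact h
  have hv₀ := cuspFun_elliptic hodd C hcard θ₀ l c₀ hc₀
  rw [← hΦ, hexp, hsum, map_inv, Units.val_inv_eq_inv_val, hθc₀] at hv₀
  have htriv1 := (d).M_triv (G := SL(2, F)) hψ
  have htriv2 := (d).M_triv (G := SL(2, F)) (mulShift_ne hη hψ)
  have htA := (d).A_triv (G := SL(2, F))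
  have hIv := (noRoot_iff_no_eigen _).1 (noRoot_of_mem hodd C hcard c₀.2 hc₀)
  have hdiff : ∀ x y : IrrCharacter SL(2, F), n x = 1 → n y = -1 → (d).A x = (d).A y →
      (d).M ψ x = (d).M ψ y + 1 → (d).M (ψ.mulShift η) x = (d).M (ψ.mulShift η) y + 1 →
      n x * (x : SL(2, F) → ℂ) c₀ + n y * (y : SL(2, F) → ℂ) c₀ = -((-1 : ℂ) + (-1)⁻¹) → False := by
    intro x y hx hy eA e1 e2 ev
    rcases (types_odd hodd hη hψ).1 y with h | h | h | h | h | h | h | h <;>
      rcases (types_odd hodd hη hψ).1 x with h' | h' | h' | h' | h' | h' | h' | h' <;> try omega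
    have ey : y = Dat.triv SL(2, F) := by
      rcases (T.A_one y).mp h.1 with e | e | e | e
      · exact e
      · rw [e, T.M_st.1] at h; omega
      · rw [e, T.M_hp.1] at h; omega
      · rw [e, T.M_hm.2] at h; omega
    have ex : x = T.st := by
      rcases (T.A_one x).mp h'.1 with e | e | e | e
      · rw [e, htriv1] at h'; omega
      · exact e
      · rw [e, T.M_hp.2] at h'; omega
      · rw [e, T.M_hm.1] at h'; omega
    rw [hx, hy, ex, ey, T.st_apply, (d).I_eq_zero_of_no_eigen 1 _ hIv] at ev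
    simp [Dat.triv] at ev
    norm_num at ev
  have hboth : n a = 1 ∧ n b = 1 := by
    rcases hle a with ea | ea | ea
    · exact absurd ea hna
    · rcases hle b with eb | eb | eb
      · exact absurd eb hnb
      · exact ⟨ea, eb⟩
      · exfalso
        rw [ea, eb] at m0 m1 m2
        refine hdiff a b ea eb ?_ ?_ ?_ hv₀
        · simp only [Dat.A]; omega
        · omega
        · omega
    · exfalso
      rcases hle b with eb | eb | eb
      · exact absurd eb hnb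
      · rw [ea, eb] at m0 m1 m2
        refine hdiff b a eb ea ?_ ?_ ?_ (by rw [add_comm]; exact hv₀)
        · simp only [Dat.A]; omega
        · omega
        · omega
      · rw [ea, eb] at m1; omega
  rw [hboth.1, hboth.2, show (d).M 1 a = (d).A a from rfl, show (d).M 1 b = (d).A b from rfl] at m0
  rw [hboth.1, hboth.2] at m1 m2
  simp only [one_mul] at m0 m1 m2
  -- both are halves, exchanged by the twist
  obtain ⟨htyp, -, -, hc1, hc2⟩ := types_odd hodd hη hψ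
  have hAab : (d).A a = 0 ∧ (d).A b = 0 := by omega
  have hhalves : (d).M ψ a + (d).M (ψ.mulShift η) a = 1 ∧ (d).M ψ b + (d).M (ψ.mulShift η) b = 1 := by
    rcases htyp a with h | h | h | h | h | h | h | h <;> rcases htyp b with h' | h' | h' | h' | h' | h' | h' | h' <;> omega
  have huniq : ∀ ξ ξ' : IrrCharacter SL(2, F), (d).A ξ = 0 → (d).A ξ' = 0 →
      (d).M ψ ξ = (d).M ψ ξ' → (d).M ψ ξ + (d).M (ψ.mulShift η) ξ = 1 →
      (d).M ψ ξ' + (d).M (ψ.mulShift η) ξ' = 1 → ξ = ξ' := by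
    intro ξ ξ' a0 a0' e s s'
    by_cases hb : (d).M ψ ξ = 1
    · exact Finset.card_le_one.mp hc1.le ξ (Finset.mem_filter.mpr ⟨Finset.mem_univ _, a0, hb, by omega⟩) ξ'
        (Finset.mem_filter.mpr ⟨Finset.mem_univ _, a0', by omega, by omega⟩)
    · exact Finset.card_le_one.mp hc2.le ξ (Finset.mem_filter.mpr ⟨Finset.mem_univ _, a0, by omega, by omega⟩) ξ'
        (Finset.mem_filter.mpr ⟨Finset.mem_univ _, a0', by omega, by omega⟩)
  have hη0 := nonsquare_ne_zero hη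
  have htw : twist (Units.mk0 η hη0) a = b := by
    refine huniq _ _ ?_ hAab.2 ?_ ?_ hhalves.2
    · rw [Dat.A, M_twist, show ((1 : AddChar F ℂ).mulShift _) = 1 from by ext x; simp [AddChar.mulShift_apply]]
      exact hAab.1
    · rw [M_twist, Units.val_mk0, show η⁻¹ = η * (η⁻¹ * η⁻¹) by field_simp, M_mulShift_sq ψ a (inv_ne_zero hη0) η]
      omega
    · rw [M_twist, M_twist, Units.val_mk0, AddChar.mulShift_mulShift, mul_inv_cancel₀ hη0, AddChar.mulShift_one,
        show η⁻¹ = η * (η⁻¹ * η⁻¹) by field_simp, M_mulShift_sq ψ a (inv_ne_zero hη0) η]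
      omega
  have hnr := noRoot_of_mem hodd C hcard c.2 hc
  have heq : (b : SL(2, F) → ℂ) c = (a : SL(2, F) → ℂ) c := by
    rw [← htw]
    obtain ⟨x, hx⟩ := isConj_iff.1 (isConj_sigma hodd (Units.mk0 η hη0) (c : SL(2, F)) ((noRoot_iff_no_eigen _).1 hnr))
    conv_rhs => rw [← hx]
    exact (isClassFunction_of_isIrr a.2 _ x).symm
  have hv := cuspFun_elliptic hodd C hcard θ₀ l c hc
  rw [← hΦ, hexp, hsum, hboth.1, hboth.2, heq, map_inv, Units.val_inv_eq_inv_val] at hv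
  have hsq : (θ₀ c : ℂ) * (θ₀ c : ℂ) = 1 := by
    have e := congrArg Units.val (DFunLike.congr_fun h0 c)
    rwa [MonoidHom.pow_apply, Units.val_pow_eq_pow_val, MonoidHom.one_apply, Units.val_one, sq] at e
  rw [inv_eq_of_mul_eq_one_right hsq, Int.cast_one, one_mul] at hv
  have hval : (a : SL(2, F) → ℂ) c = -(θ₀ c : ℂ) := by linear_combination (1 / 2 : ℂ) * hv
  by_cases hxa : (d).M ψ χ = (d).M ψ a
  · rw [huniq χ a hA hAab.1 hxa hM hhalves.1, hval]
  · rw [huniq χ b hA hAab.2 (by omega) hM hhalves.2, heq, hval]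

end Cfsg.Agent.Lib.TwoChar
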