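import Cfsg.Agent.Lib.TwoChar.SLOddTypes

/-!
# Sums over the degrees of `SL(2, q)`, `q` odd
-/

set_option autoImplicit false

open scoped MatrixGroups

namespace Cfsg.Agent.Lib.TwoChar

open Cfsg Cfsg.Agent.Lib.Char Matrix

universe u

variable {F : Type u} [Field F] [Fintype F] [Fintype SL(2, F)] (hodd : Odd (Fintype.card F))

local notation "d" => slDat F
local notation "k" => (Fintype.card F - 1) / 2

include hodd in
theorem sum_degree_fun (f : ℕ → ℕ) :
    ∑ χ : IrrCharacter SL(2, F), f (charDegree (χ : SL(2, F) → ℂ)) =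
      f 1 + f (Fintype.card F) + 2 * f ((Fintype.card F + 1) / 2) + 2 * f ((Fintype.card F - 1) / 2) +
        (Fintype.card F - 3) / 2 * f (Fintype.card F + 1) + (Fintype.card F - 1) / 2 * f (Fintype.card F - 1) := by
  classical
  obtain ⟨ψ, hψ⟩ := exists_addChar F
  obtain ⟨η, hη⟩ := FiniteField.exists_nonsquare (ringChar_ne_two hodd)
  obtain ⟨T⟩ := exists_table hodd hη hψ
  obtain ⟨htyp, hc2, hc11, hc10, hc01⟩ := types_odd hodd hη hψ
  have hq1 : 2 * k + 1 = Fintype.card F := by obtain ⟨r, hr⟩ := hodd; omega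
  have hdeg : ∀ χ : IrrCharacter SL(2, F), charDegree (χ : SL(2, F) → ℂ) =
      (d).A χ + k * ((d).M ψ χ + (d).M (ψ.mulShift η) χ) := fun χ =>
    charDegree_eq_of_apply_one (apply_one_odd hodd hη hψ χ)
  have hpt : ∀ χ : IrrCharacter SL(2, F), f (charDegree (χ : SL(2, F) → ℂ)) =
      (if (d).A χ = 1 then f (charDegree (χ : SL(2, F) → ℂ)) else 0) +
      (if (d).A χ = 2 then f (Fintype.card F + 1) else 0) +
      (if (d).A χ = 0 ∧ (d).M ψ χ = 1 ∧ (d).M (ψ.mulShift η) χ = 1 then f (Fintype.card F - 1) else 0) +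
      (if (d).A χ = 0 ∧ (d).M ψ χ = 1 ∧ (d).M (ψ.mulShift η) χ = 0 then f k else 0) +
      (if (d).A χ = 0 ∧ (d).M ψ χ = 0 ∧ (d).M (ψ.mulShift η) χ = 1 then f k else 0) := fun χ => by
    rw [hdeg]
    rcases htyp χ with ⟨a, b, c⟩ | ⟨a, b, c⟩ | ⟨a, b, c⟩ | ⟨a, b, c⟩ | ⟨a, b, c⟩ | ⟨a, b, c⟩ |
      ⟨a, b, c⟩ | ⟨a, b, c⟩ <;> rw [a, b, c] <;> simp <;> congr 1 <;> omega
  have h1 : ∑ χ : IrrCharacter SL(2, F), (if (d).A χ = 1 then f (charDegree (χ : SL(2, F) → ℂ)) else 0) =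
      f 1 + f (Fintype.card F) + 2 * f ((Fintype.card F + 1) / 2) := by
    rw [← Finset.sum_filter, T.sum_A_one hη hψ]
    simp only [hdeg, (d).A_triv, (d).M_triv hψ, (d).M_triv (mulShift_ne hη hψ), T.A_st, T.A_hp, T.A_hm, T.M_st.1,
      T.M_st.2, T.M_hp.1, T.M_hp.2, T.M_hm.1, T.M_hm.2]
    rw [show 1 + k * (1 + 1) = Fintype.card F by omega, show 1 + k * (0 + 0) = 1 by omega,
      show 1 + k * (1 + 0) = (Fintype.card F + 1) / 2 by omega]
    ring
  rw [Finset.sum_congr rfl fun χ _ => hpt χ]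
  simp only [Finset.sum_add_distrib]
  rw [h1]
  simp only [← Finset.sum_filter, Finset.sum_const, smul_eq_mul, hc11, hc10, hc01]
  rw [show (Finset.univ.filter fun χ : IrrCharacter SL(2, F) => (d).A χ = 2).card = (Fintype.card F - 3) / 2 by omega]
  ring

include hodd in
theorem card_degree_prime_to (ℓ : ℕ) :
    Nat.card {χ : IrrCharacter SL(2, F) // ¬ ℓ ∣ charDegree (χ : SL(2, F) → ℂ)} =
      (if ℓ ∣ 1 then 0 else 1) + (if ℓ ∣ Fintype.card F then 0 else 1) +
        2 * (if ℓ ∣ (Fintype.card F + 1) / 2 then 0 else 1) + 2 * (if ℓ ∣ (Fintype.card F - 1) / 2 then 0 else 1) +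
        (Fintype.card F - 3) / 2 * (if ℓ ∣ Fintype.card F + 1 then 0 else 1) +
        (Fintype.card F - 1) / 2 * (if ℓ ∣ Fintype.card F - 1 then 0 else 1) := by
  classical
  rw [← sum_degree_fun hodd (fun n => if ℓ ∣ n then 0 else 1), Nat.card_eq_fintype_card, Fintype.card_subtype,
    Finset.card_filter]
  exact Finset.sum_congr rfl fun χ _ => by simp

end Cfsg.Agent.Lib.TwoChar
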