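import Cfsg.Agent.Lib.TwoChar.DegreeSum
import Cfsg.Agent.Lib.TwoChar.Normalizers
import Cfsg.Agent.Lib.TwoChar.OddSylow
import Cfsg.Agent.Lib.TwoChar.Borel
import Cfsg.Agent.Lib.Ito

/-!
# The McKay count for `SL(2, q)`, `q` odd
-/

set_option autoImplicit false

open scoped MatrixGroups commutatorElement

namespace Cfsg.Agent.Lib.TwoChar

open Cfsg Cfsg.Agent.Lib.Char Matrix

universe u v w

theorem card_classes_congr {A : Type v} {B : Type w} [Group A] [Group B] (e : A ≃* B) :
    Nat.card (ConjClasses A) = Nat.card (ConjClasses B) :=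
  Nat.card_congr
    { toFun := ConjClasses.map e.toMonoidHom
      invFun := ConjClasses.map e.symm.toMonoidHom
      left_inv := fun c => by
        obtain ⟨a, rfl⟩ := ConjClasses.exists_rep c
        change ConjClasses.mk (e.symm (e a)) = _
        rw [e.symm_apply_apply]
      right_inv := fun c => by
        obtain ⟨a, rfl⟩ := ConjClasses.exists_rep c
        change ConjClasses.mk (e (e.symm a)) = _
        rw [e.apply_symm_apply] }

/-- All characters have degree prime to `ℓ` over an abelian normal subgroup of index prime to `ℓ`. -/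
theorem card_prime_to {G : Type v} [Group G] [Finite G] (K A : Subgroup G) (hAK : A ≤ K)
    (hn : ∀ k ∈ K, ∀ a ∈ A, k * a * k⁻¹ ∈ A) (hab : ∀ a ∈ A, ∀ b ∈ A, a * b = b * a) (ℓ : ℕ)
    (hℓ : ¬ ℓ ∣ Nat.card K / Nat.card A) :
    Nat.card {ψ : IrrCharacter K // ¬ ℓ ∣ charDegree (ψ : K → ℂ)} = Nat.card (ConjClasses K) := by
  classical
  haveI := Fintype.ofFinite K
  haveI : (A.subgroupOf K).Normal := ⟨fun a ha k => hn k k.2 a ha⟩
  have hidx : (A.subgroupOf K).index = Nat.card K / Nat.card A := by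
    have e := Subgroup.card_mul_index (A.subgroupOf K)
    rw [Nat.card_congr (Subgroup.subgroupOfEquivOfLe hAK).toEquiv] at e
    rw [← e, Nat.mul_div_cancel_left _ Nat.card_pos]
  rw [← card_irr_eq_card_conjClasses]
  refine Nat.card_congr (Equiv.subtypeUnivEquiv fun ψ h => hℓ ?_)
  rw [← hidx]
  exact h.trans (Ito.degree_dvd_index (A.subgroupOf K)
    (fun a ha b hb => Subtype.ext (hab a ha b hb)) ψ.2)

/-- Characters of odd degree of a group with an inverted abelian subgroup of index two. -/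
theorem card_odd_degree_inverted {N : Type v} [Group N] [Finite N] (C : Subgroup N) (m : ℕ) (hC : Nat.card C = 2 * m)
    (hN : Nat.card N = 4 * m) (hab : ∀ x ∈ C, ∀ y ∈ C, x * y = y * x)
    (hinv : ∀ n, n ∉ C → ∀ x ∈ C, n * x * n⁻¹ = x⁻¹) (z : N) (hz : z ∈ C) (hz1 : z ≠ 1) (hzz : z * z = 1)
    (hsq : ∀ x ∈ C, x * x = 1 → x = 1 ∨ x = z) (hout : ∃ n, n ∉ C) :
    Nat.card {ψ : IrrCharacter N // ¬ 2 ∣ charDegree (ψ : N → ℂ)} = 4 := by
  classical
  haveI := Fintype.ofFinite N
  have hm : 0 < m := by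
    rcases Nat.eq_zero_or_pos m with rfl | h
    · have : 0 < Nat.card N := Nat.card_pos
      omega
    · exact h
  have hcl := card_classes_inverted C m hC hN hab hinv z hz hz1 hzz hsq hout
  have hidx : C.index = 2 := by
    have := Subgroup.card_mul_index C
    rw [hC, hN] at this
    exact Nat.eq_of_mul_eq_mul_left (by omega : 0 < 2 * m) (by rw [this]; ring)
  haveI : C.Normal := Subgroup.normal_of_index_eq_two hidx
  have hd : ∀ ψ : IrrCharacter N, charDegree (ψ : N → ℂ) = 1 ∨ charDegree (ψ : N → ℂ) = 2 := fun ψ => by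
    have h := Ito.degree_dvd_index C hab ψ.2
    rw [hidx] at h
    exact (Nat.dvd_prime Nat.prime_two).1 h
  have h := sum_charDegree_sq (G := N)
  rw [hN] at h
  have hp : ∀ ψ : IrrCharacter N,
      charDegree (ψ : N → ℂ) ^ 2 + 3 * (if ¬ 2 ∣ charDegree (ψ : N → ℂ) then 1 else 0) = 4 := fun ψ => by
    rcases hd ψ with e | e <;> rw [e] <;> norm_num
  have hs : ∑ ψ : IrrCharacter N, (charDegree (ψ : N → ℂ) ^ 2 + 3 * (if ¬ 2 ∣ charDegree (ψ : N → ℂ) then 1 else 0)) =
      4 * (m + 3) := by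
    rw [Finset.sum_congr rfl fun ψ _ => hp ψ, Finset.sum_const, Finset.card_univ, ← Nat.card_eq_fintype_card,
      card_irr_eq_card_conjClasses, hcl, smul_eq_mul, mul_comm]
  rw [Finset.sum_add_distrib, ← Finset.mul_sum, h, ← Finset.card_filter] at hs
  rw [Nat.card_eq_fintype_card, Fintype.card_subtype]
  omega

/-- Characters of odd degree of a group of order 24 with abelianisation of order three. -/
theorem card_odd_degree_24 {N : Type v} [Group N] [Finite N] (hN : Nat.card N = 24) (h3 : (commutator N).index = 3) :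
    Nat.card {ψ : IrrCharacter N // ¬ 2 ∣ charDegree (ψ : N → ℂ)} = 4 := by
  classical
  haveI := Fintype.ofFinite N
  have h := sum_charDegree_sq (G := N)
  rw [hN] at h
  have h1 := card_charDegree_one (G := N)
  rw [h3, Nat.card_eq_fintype_card, Fintype.card_subtype] at h1
  have hd : ∀ ψ : IrrCharacter N, 1 ≤ charDegree (ψ : N → ℂ) ∧ charDegree (ψ : N → ℂ) ≤ 4 := fun ψ => by
    refine ⟨charDegree_pos ψ.2, ?_⟩
    by_contra hc
    have h5 : 5 ^ 2 ≤ charDegree (ψ : N → ℂ) ^ 2 := Nat.pow_le_pow_left (by omega) 2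
    have h6 := Finset.single_le_sum (f := fun χ : IrrCharacter N => charDegree (χ : N → ℂ) ^ 2)
      (fun _ _ => Nat.zero_le _) (Finset.mem_univ ψ)
    omega
  have hp : ∀ ψ : IrrCharacter N, charDegree (ψ : N → ℂ) ^ 2 =
      (if charDegree (ψ : N → ℂ) = 1 then 1 else 0) + 9 * (if charDegree (ψ : N → ℂ) = 3 then 1 else 0) +
        4 * ((if charDegree (ψ : N → ℂ) = 2 then 1 else 0) + 4 * (if charDegree (ψ : N → ℂ) = 4 then 1 else 0)) ∧
      (if ¬ 2 ∣ charDegree (ψ : N → ℂ) then 1 else 0) =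
        (if charDegree (ψ : N → ℂ) = 1 then 1 else 0) + (if charDegree (ψ : N → ℂ) = 3 then 1 else 0) := fun ψ => by
    obtain ⟨a, b⟩ := hd ψ
    interval_cases charDegree (ψ : N → ℂ) <;> norm_num
  rw [Finset.sum_congr rfl fun ψ _ => (hp ψ).1] at h
  simp only [Finset.sum_add_distrib, ← Finset.mul_sum, ← Finset.card_filter, h1] at h
  rw [Nat.card_eq_fintype_card, Fintype.card_subtype, Finset.card_filter, Finset.sum_congr rfl fun ψ _ => (hp ψ).2,
    Finset.sum_add_distrib, ← Finset.card_filter, ← Finset.card_filter, h1]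
  omega

variable {F : Type u} [Field F]

/-- The upper unitriangular subgroup. -/
def unipotentSL (F : Type u) [Field F] : Subgroup SL(2, F) where
  carrier := {g | (g : Matrix (Fin 2) (Fin 2) F) 1 0 = 0 ∧ (g : Matrix (Fin 2) (Fin 2) F) 0 0 = 1 ∧
    (g : Matrix (Fin 2) (Fin 2) F) 1 1 = 1}
  mul_mem' := fun {a b} ha hb => by
    obtain ⟨a1, a2, a3⟩ := ha
    obtain ⟨b1, b2, b3⟩ := hb
    simp [Matrix.SpecialLinearGroup.coe_mul, Matrix.mul_apply, Fin.sum_univ_two, a1, a2, a3, b1, b2, b3]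
  one_mem' := by simp
  inv_mem' := fun {a} ha => by
    obtain ⟨a1, a2, a3⟩ := ha
    simp [Matrix.SpecialLinearGroup.coe_inv, Matrix.adjugate_fin_two, a1, a2, a3]

theorem mem_unipotentSL (g : SL(2, F)) : g ∈ unipotentSL F ↔ (g : Matrix (Fin 2) (Fin 2) F) 1 0 = 0 ∧
    (g : Matrix (Fin 2) (Fin 2) F) 0 0 = 1 ∧ (g : Matrix (Fin 2) (Fin 2) F) 1 1 = 1 := Iff.rfl

theorem unipotent_comm {a b : SL(2, F)} (ha : a ∈ unipotentSL F) (hb : b ∈ unipotentSL F) : a * b = b * a := by
  obtain ⟨a1, a2, a3⟩ := ha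
  obtain ⟨b1, b2, b3⟩ := hb
  refine Subtype.ext ?_
  rw [Matrix.SpecialLinearGroup.coe_mul, Matrix.SpecialLinearGroup.coe_mul]
  ext i j
  fin_cases i <;> fin_cases j <;> simp [Matrix.mul_apply, Fin.sum_univ_two, a1, a2, a3, b1, b2, b3, add_comm]

variable [Fintype F]

theorem card_unipotentSL : Nat.card (unipotentSL F) = Fintype.card F := by
  rw [← Nat.card_eq_fintype_card]
  refine Nat.card_congr
    { toFun := fun g => (g.1 : Matrix (Fin 2) (Fin 2) F) 0 1
      invFun := fun x => ⟨⟨!![1, x; 0, 1], by simp [det_fin_two]⟩, ⟨rfl, rfl, rfl⟩⟩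
      left_inv := fun g => by
        obtain ⟨g1, g2, g3⟩ := g.2
        refine Subtype.ext (Subtype.ext ?_)
        ext i j
        fin_cases i <;> fin_cases j <;> simp [g1, g2, g3]
      right_inv := fun x => rfl }

theorem normalizer_unipotentSL : Subgroup.normalizer ((unipotentSL F : Subgroup SL(2, F)) : Set SL(2, F)) = borelSL F := by
  have hconj : ∀ n ∈ borelSL F, ∀ u ∈ unipotentSL F, n * u * n⁻¹ ∈ unipotentSL F := fun n hn u hu => by
    obtain ⟨u1, u2, u3⟩ := hu
    rw [mem_borelSL] at hn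
    have hdet := n.2
    rw [det_fin_two, hn, mul_zero, sub_zero] at hdet
    rw [mem_unipotentSL]
    simp [Matrix.SpecialLinearGroup.coe_mul, Matrix.SpecialLinearGroup.coe_inv, Matrix.adjugate_fin_two,
      Matrix.mul_apply, Fin.sum_univ_two, u1, u2, u3, hn, hdet]
    first | (rw [mul_comm]; exact hdet) | (constructor <;> linear_combination hdet) | linear_combination hdet
  ext n
  constructor
  · intro hn
    rw [mem_borelSL]
    let u1 : SL(2, F) := ⟨!![1, 1; 0, 1], by simp [det_fin_two]⟩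
    have hu : u1 ∈ unipotentSL F := ⟨rfl, rfl, rfl⟩
    obtain ⟨v1, v2, v3⟩ := (Subgroup.mem_normalizer_iff.mp hn u1).1 hu
    have e : ((n * u1 * n⁻¹) * n : SL(2, F)) = n * u1 := inv_mul_cancel_right _ _
    have e' := congrArg (fun z : SL(2, F) => (z : Matrix (Fin 2) (Fin 2) F) 1 1) e
    simp only [Matrix.SpecialLinearGroup.coe_mul] at e' v1 v3
    rw [Matrix.mul_apply, Fin.sum_univ_two, v1, v3] at e'
    simp [u1, Matrix.mul_apply, Fin.sum_univ_two] at e'
    linear_combination e'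
  · intro hn
    refine Subgroup.mem_normalizer_iff.mpr fun u => ⟨hconj n hn u, fun h => ?_⟩
    have h' := hconj n⁻¹ (inv_mem hn) _ h
    rwa [show n⁻¹ * (n * u * n⁻¹) * n⁻¹⁻¹ = u by group] at h'

variable (hodd : Odd (Fintype.card F))

include hodd in
theorem sylow_char_card (ℓ : ℕ) [Fact ℓ.Prime] (hℓ : ℓ ∣ Fintype.card F) :
    ℓ ^ (Nat.card SL(2, F)).factorization ℓ = Fintype.card F ∧ ¬ ℓ ∣ Fintype.card F - 1 := by
  obtain ⟨p, hp⟩ := CharP.exists F
  obtain ⟨n, hpp, hn⟩ := FiniteField.card F p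
  have hl : ℓ.Prime := Fact.out
  have hlp : ℓ = p := (Nat.prime_dvd_prime_iff_eq hl hpp).1 (hl.dvd_of_dvd_pow (hn ▸ hℓ))
  subst hlp
  have h1 := Fintype.one_lt_card (α := F)
  have hm1 : ¬ ℓ ∣ Fintype.card F - 1 := fun h => by
    have e' := Nat.dvd_sub hℓ h
    rw [show Fintype.card F - (Fintype.card F - 1) = 1 by omega] at e'
    exact hl.ne_one (Nat.dvd_one.mp e')
  refine ⟨?_, hm1⟩
  have hm : ¬ ℓ ∣ (Fintype.card F + 1) * (Fintype.card F - 1) := fun h => by
    rcases hl.dvd_mul.1 h with e | e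
    · exact hl.ne_one (Nat.dvd_one.mp (by simpa using (Nat.dvd_add_right hℓ).1 e))
    · exact hm1 e
  rw [Cfsg.Agent.Lib.Classical.card_SL_two, show Fintype.card F ^ 2 - 1 = (Fintype.card F + 1) * (Fintype.card F - 1) by
    rw [← Nat.sq_sub_sq], Nat.factorization_mul (by omega) (fun h => hm (by rw [h]; exact dvd_zero ℓ)), Finsupp.add_apply,
    Nat.factorization_eq_zero_of_not_dvd hm, add_zero, hn, Nat.Prime.factorization_pow hl, Finsupp.single_eq_same]

include hodd in
theorem mckay_char (ℓ : ℕ) [Fact ℓ.Prime] (hℓ : ℓ ∣ Fintype.card F) (S : Sylow ℓ SL(2, F)) :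
    Nat.card {ψ : IrrCharacter (Subgroup.normalizer ((S : Subgroup SL(2, F)) : Set SL(2, F))) //
      ¬ ℓ ∣ charDegree ψ.1} = Fintype.card F + 3 := by
  classical
  obtain ⟨hcard, hm1⟩ := sylow_char_card hodd ℓ hℓ
  let U : Sylow ℓ SL(2, F) := Sylow.ofCard (unipotentSL F) (by rw [hcard, card_unipotentSL])
  obtain ⟨y, hy⟩ := MulAction.exists_smul_eq SL(2, F) U S
  set K := Subgroup.normalizer ((S : Subgroup SL(2, F)) : Set SL(2, F)) with hKdef
  have hK : K = (borelSL F).map (MulAut.conj y).toMonoidHom := by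
    ext n
    rw [hKdef]
    refine (Sylow.smul_eq_iff_mem_normalizer (g := n) (P := S)).symm.trans ?_
    rw [← hy, Subgroup.mem_map_equiv]
    rw [← normalizer_unipotentSL]
    change _ ↔ (MulAut.conj y).symm n ∈ Subgroup.normalizer ((U : Subgroup SL(2, F)) : Set SL(2, F))
    refine Iff.trans ?_ (Sylow.smul_eq_iff_mem_normalizer (g := (MulAut.conj y).symm n) (P := U))
    rw [MulAut.conj_symm_apply, mul_smul, mul_smul, inv_smul_eq_iff]
  let e : K ≃* borelSL F := (MulEquiv.subgroupCongr hK).trans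
    ((borelSL F).equivMapOfInjective _ (MulAut.conj y).injective).symm
  have hcK : Nat.card K = Fintype.card F * (Fintype.card F - 1) := (Nat.card_congr e.toEquiv).trans card_borelSL
  have hcS : Nat.card (S : Subgroup SL(2, F)) = Fintype.card F := S.card_eq_multiplicity.trans hcard
  rw [card_prime_to K S Subgroup.le_normalizer (fun k hk a ha => (Subgroup.mem_normalizer_iff.mp hk a).1 ha) ?_ ℓ ?_,
    card_classes_congr e, card_classes_borelSL hodd]
  · intro a ha b hb
    rw [← hy, Sylow.coe_subgroup_smul, Subgroup.mem_smul_pointwise_iff_exists] at ha hb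
    obtain ⟨a', ha', rfl⟩ := ha
    obtain ⟨b', hb', rfl⟩ := hb
    rw [← smul_mul', ← smul_mul', unipotent_comm ha' hb']
  · rw [hcK, hcS, Nat.mul_div_cancel_left _ Fintype.card_pos]
    exact hm1

include hodd in
theorem mckay_torus (ℓ : ℕ) [Fact ℓ.Prime] (hℓ : ℓ ≠ 2) (P : Sylow ℓ SL(2, F)) {g : SL(2, F)} (hg : Reg g)
    (hN : Subgroup.normalizer ((P : Subgroup SL(2, F)) : Set SL(2, F)) =
        Subgroup.normalizer ((torusOf g : Subgroup SL(2, F)) : Set SL(2, F))) :
    Nat.card {ψ : IrrCharacter (Subgroup.normalizer ((P : Subgroup SL(2, F)) : Set SL(2, F))) //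
      ¬ ℓ ∣ charDegree ψ.1} = Nat.card (torusOf g) / 2 + 3 := by
  rw [card_prime_to _ (torusOf g) (hN ▸ Subgroup.le_normalizer)
    (fun k hk a ha => (Subgroup.mem_normalizer_iff.mp (hN ▸ hk) a).1 ha) (fun a ha b hb => hg.centralizer_comm ha hb) ℓ ?_,
    card_classes_congr (MulEquiv.subgroupCongr hN), hg.card_classes_normalizer hodd]
  rw [hN, hg.card_normalizer hodd, Nat.mul_div_cancel _ Nat.card_pos]
  exact fun h => hℓ ((Nat.prime_dvd_prime_iff_eq Fact.out Nat.prime_two).1 h)

include hodd in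
theorem mckay_two (S : Sylow 2 SL(2, F)) :
    Nat.card {ψ : IrrCharacter (Subgroup.normalizer ((S : Subgroup SL(2, F)) : Set SL(2, F))) //
      ¬ 2 ∣ charDegree ψ.1} = 4 := by
  classical
  haveI : Fintype SL(2, F) := Fintype.ofFinite _
  have h2 := Two.two_ne_zero_of_odd hodd
  obtain ⟨g, a, hg, ha, hfa, hS, hle, -, h3a⟩ := sylow_two_structure hodd S
  obtain ⟨-, h18, h38⟩ := sylow_two_full hodd S
  have hne : negOne F ≠ 1 := fun e => by
    have e' := congrArg (fun u : SL(2, F) => (u : Matrix (Fin 2) (Fin 2) F) 0 0) e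
    simp [coe_negOne] at e'
    exact h2 (by linear_combination -e')
  by_cases h8 : Fintype.card F % 8 = 1 ∨ Fintype.card F % 8 = 7
  · suffices ∀ K : Subgroup SL(2, F), K = S → Nat.card {ψ : IrrCharacter K // ¬ 2 ∣ charDegree (ψ : K → ℂ)} = 4 from
      this _ (h18 h8)
    rintro K rfl
    obtain ⟨hI, -, ⟨w, hwS, hwT⟩, -⟩ := sylow_two_facts hodd S hg ha hfa hS hle
    have hzS : negOne F ∈ (S : Subgroup SL(2, F)) := (hg.outside hodd (hle hwS) hwT).2 ▸ mul_mem hwS hwS
    have hzT : negOne F ∈ torusOf g := Subgroup.center_le_centralizer _ (negOne_mem_center F)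
    refine card_odd_degree_inverted ((torusOf g).subgroupOf (S : Subgroup SL(2, F))) (2 ^ (a - 1)) ?_ ?_
      (fun x hx y hy => Subtype.ext (hg.centralizer_comm hx hy))
      (fun n hn x hx => Subtype.ext ((hg.outside hodd (hle n.2) hn).1 x hx)) ⟨negOne F, hzS⟩ hzT
      (fun e => hne (congrArg Subtype.val e)) (Subtype.ext (negOne_mul_self F)) (fun x _ hxx => ?_)
      ⟨⟨w, hwS⟩, hwT⟩
    · rw [← Subgroup.inf_subgroupOf_left, Nat.card_congr (Subgroup.subgroupOfEquivOfLe inf_le_left).toEquiv, hI,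
        ← pow_succ', show a - 1 + 1 = a by omega]
    · rw [hS, show a + 1 = (a - 1) + 2 by omega, pow_add]
      ring
    · rcases mem_center_cases (mem_center_of_mul_self h2 (congrArg Subtype.val hxx)) with e | e
      · exact Or.inl (Subtype.ext e)
      · exact Or.inr (Subtype.ext e)
  · have h8' : Fintype.card F % 8 = 3 ∨ Fintype.card F % 8 = 5 := by
      obtain ⟨r, hr⟩ := hodd
      omega
    obtain ⟨hN, x, hxS, -, hconj⟩ := h38 h8'
    have hS8 : Nat.card (S : Subgroup SL(2, F)) = 8 := hS.trans (by rw [h3a h8']; norm_num)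
    set K := Subgroup.normalizer ((S : Subgroup SL(2, F)) : Set SL(2, F)) with hK
    have hK24 : Nat.card K = 24 := hN.trans (by rw [hS8])
    refine card_odd_degree_24 hK24 ?_
    have hSK : (S : Subgroup SL(2, F)) ≤ K := Subgroup.le_normalizer
    have hcS : Nat.card ((S : Subgroup SL(2, F)).subgroupOf K) = 8 :=
      (Nat.card_congr (Subgroup.subgroupOfEquivOfLe hSK).toEquiv).trans hS8
    haveI : ((S : Subgroup SL(2, F)).subgroupOf K).Normal :=
      ⟨fun u hu k => (Subgroup.mem_normalizer_iff.mp k.2 u).1 hu⟩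
    have hidx : ((S : Subgroup SL(2, F)).subgroupOf K).index = 3 := by
      have e := Subgroup.card_mul_index ((S : Subgroup SL(2, F)).subgroupOf K)
      rw [hcS, hK24] at e
      omega
    have hle' : commutator K ≤ (S : Subgroup SL(2, F)).subgroupOf K := by
      haveI : Fact (Nat.Prime 3) := ⟨Nat.prime_three⟩
      haveI : IsCyclic (K ⧸ (S : Subgroup SL(2, F)).subgroupOf K) := isCyclic_of_prime_card hidx
      rw [← Subgroup.Normal.quotient_commutative_iff_commutator_le]
      infer_instance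
    set D := (commutator K).map K.subtype with hD
    have hDS : D ≤ S := fun z hz => by
      obtain ⟨k, hk, rfl⟩ := hz
      exact hle' hk
    have hcD : Nat.card (commutator K) = Nat.card D := (Subgroup.card_map_of_injective K.subtype_injective).symm
    have h6 : 6 ≤ Nat.card D := by
      set V := Finset.univ.filter fun v : SL(2, F) => v ∈ (S : Subgroup SL(2, F)) ∧ v ∉ Subgroup.center SL(2, F) with hV
      have hV6 : 6 ≤ V.card := by
        have h1 : (Finset.univ.filter fun v : SL(2, F) => v ∈ (S : Subgroup SL(2, F))).card = 8 := by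
          rw [← Fintype.card_subtype, ← Nat.card_eq_fintype_card]; exact hS8
        have hsub : (Finset.univ.filter fun v : SL(2, F) => v ∈ (S : Subgroup SL(2, F))) ⊆ V ∪ {1, negOne F} := fun v hv => by
          by_cases hvz : v ∈ Subgroup.center SL(2, F)
          · rcases mem_center_cases hvz with e | e <;> simp [e]
          · exact Finset.mem_union_left _ (Finset.mem_filter.mpr ⟨Finset.mem_univ _, (Finset.mem_filter.mp hv).2, hvz⟩)
        have := (Finset.card_le_card hsub).trans (Finset.card_union_le _ _)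
        have : ({1, negOne F} : Finset SL(2, F)).card ≤ 2 := Finset.card_le_two
        omega
      have hsub : V.image (fun v => v * x⁻¹) ⊆ Finset.univ.filter fun z : SL(2, F) => z ∈ D := fun z hz => by
        obtain ⟨v, hv, rfl⟩ := Finset.mem_image.mp hz
        obtain ⟨n, hn, hnv⟩ := hconj v (Finset.mem_filter.mp hv).2.1 (Finset.mem_filter.mp hv).2.2
        refine Finset.mem_filter.mpr ⟨Finset.mem_univ _, ⟨⁅(⟨n, hn⟩ : K), (⟨x, hSK hxS⟩ : K)⁆, ?_, ?_⟩⟩
        · exact Subgroup.commutator_mem_commutator (Subgroup.mem_top _) (Subgroup.mem_top _)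
        · rw [← hnv]
          rfl
      have h := Finset.card_le_card hsub
      rw [Finset.card_image_of_injective _ (mul_left_injective x⁻¹)] at h
      rw [Nat.card_eq_fintype_card, Fintype.card_subtype]
      omega
    have h8D : Nat.card (commutator K) = 8 := by
      have h := Subgroup.card_dvd_of_le hDS
      rw [hS8] at h
      rw [hcD]
      have := Nat.le_of_dvd (by norm_num) h
      interval_cases hc : Nat.card D <;> omega
    have e := Subgroup.card_mul_index (commutator K)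
    rw [h8D, hK24] at e
    omega

include hodd in
theorem mckay (ℓ : ℕ) [Fact ℓ.Prime] (S : Sylow ℓ SL(2, F)) :
    Nat.card {χ : IrrCharacter SL(2, F) // ¬ ℓ ∣ charDegree (χ : SL(2, F) → ℂ)} =
      Nat.card {ψ : IrrCharacter (Subgroup.normalizer ((S : Subgroup SL(2, F)) : Set SL(2, F))) //
        ¬ ℓ ∣ charDegree ψ.1} := by
  classical
  haveI : Fintype SL(2, F) := Fintype.ofFinite _
  have hl : ℓ.Prime := Fact.out
  have h1 : ¬ ℓ ∣ 1 := fun h => hl.ne_one (Nat.dvd_one.mp h)
  have hq := Fintype.one_lt_card (α := F)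
  obtain ⟨r, hr⟩ := hodd
  have hodd : Odd (Fintype.card F) := ⟨r, hr⟩
  have hr1 : (Fintype.card F + 1) / 2 = r + 1 := by omega
  have hr2 : (Fintype.card F - 1) / 2 = r := by omega
  have hr3 : (Fintype.card F - 3) / 2 = r - 1 := by omega
  rw [card_degree_prime_to hodd, hr1, hr2, hr3, hr, show 2 * r + 1 + 1 = 2 * (r + 1) by ring,
    show 2 * r + 1 - 1 = 2 * r by omega, if_neg h1]
  by_cases hℓ2 : ℓ = 2
  · subst hℓ2
    rw [mckay_two hodd S, if_pos (dvd_mul_right 2 _), if_pos (dvd_mul_right 2 _), if_neg (by omega : ¬ 2 ∣ 2 * r + 1)]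
    split_ifs <;> omega
  have hl3 : 3 ≤ ℓ := by have := hl.two_le; omega
  have hcop : ∀ m, ℓ ∣ 2 * m → ℓ ∣ m := fun m h =>
    (((Nat.coprime_primes hl Nat.prime_two).2 hℓ2)).dvd_of_dvd_mul_left h
  by_cases hm : ℓ ∣ 2 * r
  · obtain ⟨g, hg, hc, -, hN, -⟩ := odd_sylow_pred hodd ℓ hℓ2 (by rwa [show Fintype.card F - 1 = 2 * r by omega]) S
    have a1 : ¬ ℓ ∣ 2 * r + 1 := fun h => h1 ((Nat.dvd_add_right hm).1 h)
    have a2 : ¬ ℓ ∣ r + 1 := fun h => h1 ((Nat.dvd_add_right (hcop r hm)).1 h)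
    have a3 : ¬ ℓ ∣ 2 * (r + 1) := fun h => a2 (hcop _ h)
    rw [mckay_torus hodd ℓ hℓ2 S hg hN, hc, if_neg a1, if_neg a2, if_neg a3, if_pos hm, if_pos (hcop r hm)]
    omega
  by_cases hp : ℓ ∣ 2 * (r + 1)
  · obtain ⟨g, hg, hc, -, hN, -⟩ := odd_sylow_succ hodd ℓ hℓ2 (by rwa [show Fintype.card F + 1 = 2 * (r + 1) by omega]) S
    have a1 : ¬ ℓ ∣ 2 * r + 1 := fun h => h1 ((Nat.dvd_add_right h).1 (by rwa [show 2 * r + 1 + 1 = 2 * (r + 1) by ring]))
    rw [mckay_torus hodd ℓ hℓ2 S hg hN, hc, if_neg a1, if_neg hm, if_pos hp, if_pos (hcop _ hp),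
      if_neg fun h => hm (h.mul_left 2)]
    omega
  have a2 : ¬ ℓ ∣ r + 1 := fun h => hp (h.mul_left 2)
  have a3 : ¬ ℓ ∣ r := fun h => hm (h.mul_left 2)
  rw [if_neg hm, if_neg hp, if_neg a2, if_neg a3]
  by_cases h0 : ℓ ∣ 2 * r + 1
  · rw [mckay_char hodd ℓ (hr ▸ h0) S, if_pos h0]
    omega
  · rw [if_neg h0]
    have hG : ¬ ℓ ∣ Nat.card SL(2, F) := by
      rw [Cfsg.Agent.Lib.Classical.card_SL_two, show Fintype.card F ^ 2 - 1 = (Fintype.card F + 1) * (Fintype.card F - 1) by
        rw [← Nat.sq_sub_sq], show Fintype.card F + 1 = 2 * (r + 1) by omega, show Fintype.card F - 1 = 2 * r by omega, hr,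
        hl.dvd_mul, hl.dvd_mul]
      rintro (h | h | h)
      · exact h0 h
      · exact hp h
      · exact hm h
    have hbot : (S : Subgroup SL(2, F)) = ⊥ := Subgroup.eq_bot_of_card_eq _ (by
      rw [S.card_eq_multiplicity, Nat.factorization_eq_zero_of_not_dvd hG, pow_zero])
    have hN : Subgroup.normalizer ((S : Subgroup SL(2, F)) : Set SL(2, F)) = ⊤ := by
      rw [hbot]
      exact Subgroup.normalizer_eq_top_iff.mpr inferInstance
    rw [card_prime_to (Subgroup.normalizer ((S : Subgroup SL(2, F)) : Set SL(2, F))) ⊥ bot_le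
        (fun k _ a ha => by rw [Subgroup.mem_bot.mp ha]; simp)
        (fun a ha b hb => by rw [Subgroup.mem_bot.mp ha, Subgroup.mem_bot.mp hb]) ℓ
        (by rw [Subgroup.card_bot, Nat.div_one, hN, Subgroup.card_top]; exact hG),
      card_classes_congr ((MulEquiv.subgroupCongr hN).trans Subgroup.topEquiv), Two.card_classes_sl_odd hodd, hr]
    omega

end Cfsg.Agent.Lib.TwoChar
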